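import Cfsg.Agent.BlockB.Section
import Cfsg.Agent.BlockB.Gen
import Cfsg.Agent.Invol.Count
import Cfsg.Agent.Coprime.Misc
import Cfsg.Agent.Char.Classes
import Cfsg.Agent.Transfer.Frobenius

/-!
# Landau's theorem and groups with small involution centralizers
-/

set_option autoImplicit false

namespace CF.BlockB

open Cfsg Subgroup

universe u

theorem egyptian (k : ℕ) (r : ℚ) : ∃ N : ℕ, ∀ s : Multiset ℕ, s.card ≤ k → (∀ n ∈ s, 0 < n) →
    (s.map fun n : ℕ => (n : ℚ)⁻¹).sum = r → ∀ n ∈ s, n ≤ N := by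
  induction k generalizing r with
  | zero => exact ⟨0, fun s hs _ _ n hn => by simp [Multiset.card_eq_zero.1 (Nat.le_zero.1 hs)] at hn⟩
  | succ k ih =>
    choose f hf using ih
    refine ⟨(Finset.range (⌊(k + 1) / r⌋₊ + 1)).sup fun n => max n (f (r - (n : ℚ)⁻¹)),
      fun s hs h0 hr n hn => ?_⟩
    obtain ⟨m, hm, hmin⟩ := Finset.exists_min_image s.toFinset id ⟨n, Multiset.mem_toFinset.2 hn⟩
    rw [Multiset.mem_toFinset] at hm
    have hm0 : (0 : ℚ) < m := Nat.cast_pos.2 (h0 m hm)
    obtain ⟨t, rfl⟩ := Multiset.exists_cons_of_mem hm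
    have h1 : r ≤ (k + 1) * (m : ℚ)⁻¹ := by
      rw [← hr]
      refine (Multiset.sum_le_card_nsmul _ (m : ℚ)⁻¹ fun x hx => ?_).trans ?_
      · obtain ⟨y, hy, rfl⟩ := Multiset.mem_map.1 hx
        exact inv_anti₀ hm0 (Nat.cast_le.2 (hmin y (Multiset.mem_toFinset.2 hy)))
      · rw [Multiset.card_map, nsmul_eq_mul]
        exact mul_le_mul_of_nonneg_right (by exact_mod_cast hs) (by positivity)
    rw [Multiset.map_cons, Multiset.sum_cons] at hr
    have h2 : 0 < r := hr ▸ add_pos_of_pos_of_nonneg (inv_pos.2 hm0) (Multiset.sum_nonneg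
      fun x hx => by obtain ⟨y, -, rfl⟩ := Multiset.mem_map.1 hx; positivity)
    refine le_trans ?_ (Finset.le_sup (f := fun n => max n (f (r - (n : ℚ)⁻¹))) (b := m)
      (Finset.mem_range_succ_iff.2 (Nat.le_floor ?_)))
    · rcases Multiset.mem_cons.1 hn with rfl | hn
      · exact le_max_left _ _
      · exact le_max_of_le_right (hf _ t (by simpa using hs)
          (fun x hx => h0 x (Multiset.mem_cons_of_mem hx)) (eq_sub_of_add_eq' hr) n hn)
    · rwa [le_div_iff₀ h2, mul_comm, ← le_mul_inv_iff₀ hm0]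

/-- Landau's theorem. -/
theorem landau (k : ℕ) : ∃ N : ℕ, ∀ (G : Type u) [Group G] [Finite G],
    Nat.card (ConjClasses G) ≤ k → Nat.card G ≤ N := by
  obtain ⟨N, hN⟩ := egyptian k 1
  refine ⟨N, fun G _ _ hk => ?_⟩
  classical
  have := Fintype.ofFinite G
  have := Fintype.ofFinite (ConjClasses G)
  have h1 : ∀ C : ConjClasses G, Nat.card G / Nat.card C.carrier * Nat.card C.carrier =
      Nat.card G := fun C => by
    obtain ⟨g, rfl⟩ := C.exists_rep
    rw [Char.card_carrier_eq_index]
    exact Nat.div_mul_cancel (index_dvd_card _)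
  have h2 : ∀ C : ConjClasses G, 0 < Nat.card G / Nat.card C.carrier := fun C =>
    Nat.pos_of_ne_zero fun h => Nat.card_pos.ne' (by rw [← h1 C, h, zero_mul])
  have := hN (Finset.univ.val.map fun C : ConjClasses G => Nat.card G / Nat.card C.carrier)
    (by simpa using hk) (by simpa using h2) ?_ _
    (Multiset.mem_map_of_mem _ (Finset.mem_univ (ConjClasses.mk 1)))
  · rwa [Char.card_carrier_eq_index, index_centralizer_one, Nat.div_one] at this
  rw [Multiset.map_map, ← Finset.sum_eq_multiset_sum]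
  have h3 := Char.sum_eq_sum_classes (G := G) fun _ => (1 : ℚ)
  rw [Finset.sum_const, Finset.card_univ, ← Nat.card_eq_fintype_card, nsmul_one] at h3
  refine mul_right_cancel₀ (Nat.cast_ne_zero.2 (Nat.card_pos (α := G)).ne') ?_
  rw [Finset.sum_mul, one_mul]
  refine (Finset.sum_congr rfl fun C _ => ?_).trans h3.symm
  rw [Function.comp, inv_mul_eq_iff_eq_mul₀ (Nat.cast_pos.2 (h2 C)).ne', nsmul_one, ← Nat.cast_mul,
    h1]

theorem exists_card_le_of_single_block (p a : ℕ) : ∃ N : ℕ, ∀ (G : Type u) [Group G] [Finite G]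
    (M : Ideal AlgInt), IsPModular p M → (Nat.card G).factorization p ≤ a →
      (∀ B, IsPBlock M B → B = principalBlock M G) → Nat.card G ≤ N := by
  obtain ⟨N, hN⟩ := landau.{u} (p ^ (2 * a) + 4)
  refine ⟨N, fun G _ _ M hM ha h => hN G ?_⟩
  have h1 := four_mul_card_le hM (isPBlock_principalBlock (G := G))
  rw [show principalBlock M G = Set.univ from Set.eq_univ_of_forall fun χ =>
    h _ (isPBlock_blockOf χ) ▸ mem_blockOf_self hM χ, Nat.card_univ, Char.card_irr] at h1
  have := Nat.pow_le_pow_right hM.1.pos (Nat.mul_le_mul_left 2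
    (((blockDefect_eq (p := p) (Set.univ : Set (IrrCharacter G))).trans_le (Nat.sub_le _ _)).trans ha))
  omega

variable {G : Type u} [Group G] [Finite G]

omit [Finite G] in
theorem index_cen_mul_le (a b : G) : (Cen (a * b)).index ≤ (Cen a).index * (Cen b).index ∨
    (Cen a ⊓ Cen b).index = 0 :=
  (eq_or_ne (Cen a ⊓ Cen b).index 0).symm.imp_left fun h => (Nat.le_of_dvd (Nat.pos_of_ne_zero h)
    (index_dvd_of_le fun g hg => mem_Cen.2 (by
      rw [← mul_assoc, mem_Cen.1 hg.1, mul_assoc, mem_Cen.1 hg.2, mul_assoc]))).trans index_inf_le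

theorem index_cen_mul_le' (a b : G) : (Cen (a * b)).index ≤ (Cen a).index * (Cen b).index :=
  (index_cen_mul_le a b).resolve_right FiniteIndex.index_ne_zero

/-- Many elements have small classes if an involution has a small centralizer. -/
theorem card_le_mul_card_small {t : G} (ht : orderOf t = 2) {c : ℕ} (hc : Nat.card (Cen t) ≤ c) :
    Nat.card G ≤ 2 * c ^ 2 * Nat.card {g : G // (Cen g).index ≤ 2 * c ^ 2} := by
  classical
  have := Fintype.ofFinite G
  have h1 : Nat.card G ≤ Nat.card {s : G // orderOf s = 2} * c := by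
    rw [← Invol.card_isConj_mul_card_centralizer t]
    refine Nat.mul_le_mul (Nat.card_le_card_of_injective (fun s => ⟨s.1, ?_⟩) fun a b h => ?_) hc
    · obtain ⟨g, hg⟩ := isConj_iff.1 s.2
      rw [← hg, orderOf_conj', ht]
    · exact Subtype.ext (Subtype.mk.inj h)
  have h2 : 2 * c ^ 2 * Nat.card {s : G // orderOf s = 2} ^ 2 ≤ 2 * c ^ 2 *
      Nat.card {g : G // (Cen g).index ≤ 2 * c ^ 2} * Nat.card G + Nat.card G * Nat.card G := by
    rw [← Invol.sum_pairCount, Finset.mul_sum, Nat.card_eq_fintype_card (α := {g // _}),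
      Fintype.card_subtype, Finset.card_filter, Finset.mul_sum, Finset.sum_mul]
    conv_rhs => arg 2; arg 1; rw [Nat.card_eq_fintype_card, ← Finset.card_univ]
    rw [← smul_eq_mul (Finset.card _), ← Finset.sum_const, ← Finset.sum_add_distrib]
    refine Finset.sum_le_sum fun g _ => (Nat.mul_le_mul_left _ (Invol.pairCount_le g)).trans ?_
    split_ifs with h
    · rw [mul_one]
      exact le_add_right (Nat.mul_le_mul_left _ (card_le_card_group _))
    · rw [mul_zero, zero_mul, zero_add, ← (Cen g).index_mul_card]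
      exact Nat.mul_le_mul_right _ (not_le.1 h).le
  refine le_of_mul_le_mul_right ?_ (Nat.card_pos (α := G))
  nlinarith [Nat.mul_le_mul h1 h1]

theorem exists_subgroup_small {m : ℕ} (hm : 0 < m)
    (h : Nat.card G ≤ m * Nat.card {g : G // (Cen g).index ≤ m}) :
    ∃ K : Subgroup G, K.index ≤ m ∧ ∀ g ∈ K, (Cen g).index ≤ m ^ (3 * m) := by
  classical
  have := Fintype.ofFinite G
  have hinv : ∀ g : G, (Cen g⁻¹).index = (Cen g).index := fun g => by rw [Cen, centralizer_inv]
  have hX : 0 < Nat.card {g : G // (Cen g).index ≤ m} := Nat.pos_of_ne_zero fun h0 =>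
    Nat.card_pos.not_ge (by rwa [h0, mul_zero] at h)
  obtain ⟨j, hj, h1⟩ : ∃ j ≤ m, ∀ x g : G, (Cen x).index ≤ m → (Cen g).index ≤ m ^ (3 * j) →
      (Cen (g * x)).index ≤ m ^ (3 * j) := by
    by_contra! h1
    choose! x g h2 h3 h4 using h1
    have h5 : ∀ i j (y z : {g : G // (Cen g).index ≤ m}), i ≤ m → j ≤ m → i < j →
        g i * x i * y ≠ g j * x j * z := fun i j y z hi hj hij e => by
      refine (h4 j hj).not_ge ?_
      rw [← mul_inv_eq_iff_eq_mul.2 e]
      refine (index_cen_mul_le' _ _).trans ((Nat.mul_le_mul ((index_cen_mul_le' _ _).trans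
        (Nat.mul_le_mul ((index_cen_mul_le' _ _).trans (Nat.mul_le_mul (h3 i hi) (h2 i hi))) y.2))
        ((hinv _).trans_le z.2)).trans ?_)
      rw [← pow_succ, ← pow_succ, ← pow_succ]
      exact Nat.pow_le_pow_right hm (by omega)
    have := Nat.card_le_card_of_injective
      (fun a : Fin (m + 1) × {g : G // (Cen g).index ≤ m} => g a.1 * x a.1 * a.2) fun a b e => by
        rcases lt_trichotomy a.1 b.1 with h | h | h
        · exact (h5 _ _ _ _ a.1.is_le b.1.is_le h e).elim
        · exact Prod.ext h (Subtype.ext (by simpa [h] using e))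
        · exact (h5 _ _ _ _ b.1.is_le a.1.is_le h e.symm).elim
    rw [Nat.card_prod, Nat.card_fin] at this
    nlinarith
  refine ⟨closure {g | (Cen g).index ≤ m}, le_of_mul_le_mul_right ?_ hX, fun g hg => ?_⟩
  · refine le_trans (Nat.mul_le_mul_left _ (Nat.card_le_card_of_injective
      (fun g => (⟨g.1, subset_closure g.2⟩ : closure {g : G | (Cen g).index ≤ m})) fun a b h =>
        Subtype.ext (Subtype.mk.inj h))) ?_
    rwa [index_mul_card]
  · refine le_trans ?_ (Nat.pow_le_pow_right hm (Nat.mul_le_mul_left 3 hj))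
    induction hg using closure_induction_right with
    | one => rw [index_centralizer_one]; exact Nat.one_le_pow _ _ hm
    | mul_right y _ x hx ih => exact h1 x y hx ih
    | mul_inv_cancel y _ x hx ih => exact h1 _ y ((hinv x).trans_le hx) ih

theorem card_le_of_isPGroup {p a : ℕ} (hp : p.Prime) (ha : (Nat.card G).factorization p ≤ a)
    {S : Subgroup G} (hS : IsPGroup p S) : Nat.card S ≤ p ^ a := by
  have := Fact.mk hp
  obtain ⟨n, hn⟩ := hS.exists_card_eq
  rw [hn]
  exact Nat.pow_le_pow_right hp.pos (((hp.pow_dvd_iff_le_factorization Nat.card_pos.ne').1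
    (hn ▸ card_subgroup_dvd_card S)).trans ha)

theorem card_le_of_small {p a m R : ℕ} (hp : p.Prime) (ha : (Nat.card G).factorization p ≤ a)
    {K : Subgroup G} (hK : K.index ≤ m) (hR : ∀ g ∈ K, (Cen g).index ≤ R) :
    Nat.card G ≤ (m * R ^ p ^ a).factorial * p ^ a * Nat.card (pPrimeCore p G) := by
  have := Fact.mk hp
  obtain ⟨S, hS⟩ := Block.exists_isSyl (p := p) K
  have := Fintype.ofFinite S
  have hR0 : 0 < R := lt_of_lt_of_le (Nat.pos_of_ne_zero FiniteIndex.index_ne_zero) (hR 1 K.one_mem)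
  let L := K ⊓ ⨅ s : S, Cen (s : G)
  have h1 : L.index ≤ m * R ^ p ^ a := index_inf_le.trans (Nat.mul_le_mul hK
    ((index_iInf_le _).trans ((Finset.prod_le_pow_card _ _ R fun (s : S) _ => hR s (hS.le s.2)).trans
      (Nat.pow_le_pow_right hR0 (by
        rw [Finset.card_univ, ← Nat.card_eq_fintype_card]
        exact card_le_of_isPGroup hp ha hS.isP)))))
  obtain ⟨P, O, hO, hc⟩ : HasNormalPComplement p L.normalCore :=
    Transfer.frobenius_hasNPC' fun Q hQ _ g _ _ => mem_centralizer_iff.2 fun q hq => by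
      obtain ⟨k, -, hk⟩ := hS.exists_le_cjs (hQ.map L.normalCore.subtype)
        ((map_subtype_le _).trans (L.normalCore_le.trans inf_le_left))
      have h2 := mem_Cen.1 (mem_iInf.1 (L.normalCore_le
        ((normalCore_normal L).conj_mem' g g.2 k)).2 ⟨_, Block.mem_cjs.1 (hk (mem_map_of_mem _ hq))⟩)
      refine Subtype.ext ?_
      simpa [← mul_assoc] using (by simpa [mul_assoc] using h2.symm : (q : G) * (g * k) = g * (q * k))
  rw [← L.normalCore.index_mul_card, ← hc.card_mul_card, mul_comm (Nat.card O), ← mul_assoc]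
  refine Nat.mul_le_mul (Nat.mul_le_mul ((Nat.le_of_dvd (Nat.factorial_pos _)
    (Invol.index_normalCore_dvd_factorial L)).trans (Nat.factorial_le h1)) ?_) ?_
  · exact card_le_of_isPGroup hp (((Nat.factorization_le_iff_dvd Nat.card_pos.ne'
      Nat.card_pos.ne').2 (card_subgroup_dvd_card _) p).trans ha) P.isPGroup'
  · rw [← card_map_of_injective (K := O) L.normalCore.subtype_injective]
    refine card_le_of_le ((map_mono (Solv.le_pPrimeCore ?_)).trans
      ((Solv.map_pPrimeCore_of_normal _).trans_le inf_le_left))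
    rw [← hc.index_eq_card]
    exact ((hp.coprime_iff_not_dvd).2 P.not_dvd_index).symm

/-- A group with a four-subgroup whose involutions have small centralizers. -/
theorem exists_card_le_of_four (a c : ℕ) : ∃ N : ℕ, ∀ (G : Type u) [Group G] [Finite G]
    (V : Subgroup G), (Nat.card G).factorization 2 ≤ a → IsElementaryAbelian 2 V → Nat.card V = 4 →
      (∀ v ∈ V, v ≠ 1 → Nat.card (Cen v) ≤ c) → Nat.card G ≤ N := by
  refine ⟨(2 * c ^ 2 * ((2 * c ^ 2) ^ (3 * (2 * c ^ 2))) ^ 2 ^ a).factorial * 2 ^ a * c ^ 3,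
    fun G _ _ V ha hV h4 hc => ?_⟩
  classical
  have := Fintype.ofFinite V
  obtain ⟨t, ht⟩ := exists_prime_orderOf_dvd_card' (G := V) 2 (by rw [h4]; norm_num)
  have ht1 : (t : G) ≠ 1 := fun h => by simp [show t = 1 from Subtype.ext h] at ht
  have hc0 : 0 < c := Nat.card_pos.trans_le (hc t t.2 ht1)
  obtain ⟨K, h1, h2⟩ := exists_subgroup_small (by positivity)
    (card_le_mul_card_small ((orderOf_coe t).trans ht) (hc t t.2 ht1))
  refine (card_le_of_small Nat.prime_two ha h1 h2).trans (Nat.mul_le_mul_left _ ?_)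
  have h3 := Coprime.prod_card_inf_centralizer_elem (n := 1) V (pPrimeCore 2 G) hV h4
    (by rw [normalizer_eq_top]; exact le_top)
    (by rw [h4]; exact (Nat.Coprime.pow_right 2 (Solv.pPrimeCore_coprime (G := G) (p := 2))).symm)
  rw [← Finset.mul_prod_erase _ _ (Finset.mem_univ 1)] at h3
  have h5 := Finset.prod_le_pow_card (Finset.univ.erase (1 : V))
    (fun a => Nat.card (pPrimeCore 2 G ⊓ centralizer {(a : G)} : Subgroup G)) c fun v hv =>
      (card_le_of_le inf_le_right).trans (hc v v.2 fun h =>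
        Finset.ne_of_mem_erase hv (Subtype.ext h))
  rw [Finset.card_erase_of_mem (Finset.mem_univ _), Finset.card_univ, ← Nat.card_eq_fintype_card,
    h4] at h5
  refine le_of_mul_le_mul_left ?_ (Nat.card_pos (α := pPrimeCore 2 G))
  refine le_trans ?_ (h3.ge.trans (Nat.mul_le_mul (card_le_of_le inf_le_left) h5))
  rw [← sq]
  exact Nat.le_mul_of_pos_right _ (pow_pos Nat.card_pos _)

end CF.BlockB
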