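import Cfsg.Agent.Block.Mlt
import Cfsg.Agent.BlockB.Gal
import Cfsg.Agent.BlockB.Column
import Mathlib.RingTheory.ZMod.UnitsCyclic

/-!
# A block has at least `l(B)` characters which are `p`-rational (`p` odd)
-/

namespace CF.BlockB

open Cfsg CF.Block
open scoped ComplexConjugate MonoidAlgebra

variable {p : ℕ} {M : Ideal AlgInt} {G : Type*} [Group G] [Fintype G]

/-- The contribution of one irreducible Brauer character of one subsection. -/
theorem exists_nat_sec_pow (hM : IsPModular p M) {x : G} (hx : ∃ k : ℕ, orderOf x = p ^ k)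
    [Fintype (Cen x)] {b : Set (IrrCharacter (Cen x))} (hb : nrm M (eSet b) ≤ 1) {ι : Type*}
    [Fintype ι] [DecidableEq ι] {j : ι → (k M)[Cen x]} {φ : ι → Cen x → ℂ} (h : IBr p M b j φ)
    (i : ι) {l l' : ℕ} (hl : ∀ g : G, (g ^ l') ^ l = g)
    (hl' : ∀ g : G, ¬ p ∣ orderOf g → g ^ l' = g) : ∃ n : ℕ, classInner
      (sec (Cen x) x fun g => lift (Cen x) ⟨x, self_mem_Cen x⟩ (φ i) (g ^ l')) (pch M (j i)) = n := by
  have hpv := pv_pch hM (h.idem i)
  have hc := (h.inSpan hM hb i).classFun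
  have e : ∀ y : Cen x, ¬ p ∣ orderOf y → (x * y) ^ l' = x ^ l' * y := fun y hy => by
    rw [(commute_of_mem_Cen y).mul_pow, hl' y (by rwa [Subgroup.orderOf_coe])]
  by_cases hxx : IsConj x (x ^ l')
  · obtain ⟨t, ht⟩ := isConj_iff.1 hxx
    have h1 : ∀ y : G, y ∈ Cen x ↔ t⁻¹ * y * t ∈ Cen x := fun y => by
      have a : y * x = x * y ↔ y * x ^ l' = x ^ l' * y :=
        ⟨fun h => (Commute.pow_right h l').eq, fun h => by
          have := (Commute.pow_right h l).eq; rwa [hl] at this⟩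
      rw [mem_Cen, mem_Cen, a, ← ht]
      constructor
      · intro h
        calc t⁻¹ * y * t * x = t⁻¹ * (y * (t * x * t⁻¹)) * t := by group
          _ = _ := by rw [h]; group
      · intro h
        calc y * (t * x * t⁻¹) = t * (t⁻¹ * y * t * x) * t⁻¹ := by group
          _ = _ := by rw [h]; group
    let α : Cen x →* Cen x :=
      { toFun := fun y => ⟨t⁻¹ * y * t, (h1 y).1 y.2⟩
        map_one' := Subtype.ext (by simp)
        map_mul' := fun a b => Subtype.ext (by simp [mul_assoc]) }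
    have hα : Function.Injective α := fun a b e => Subtype.ext (by
      simpa [α] using congrArg Subtype.val e)
    obtain ⟨n, hn⟩ := h.exists_nat hM hb i (x := gmap α (j i)) (by rw [← map_mul, h.idem])
    refine ⟨n, ?_⟩
    rw [← hn, ← map_one α, tau_gmap hα hc (by rw [Subgroup.zpowers_one_eq_bot]; exact mem_fix_bot _)
      (h.idem i), ← inner_pch (Char.classFun_comp hc α) (h.idem i)]
    refine hpv.inner_congr_left fun y hy => ?_
    rw [sec_apply, e y hy, ← lift_apply_mul hM.1 (x := ⟨x, self_mem_Cen x⟩) hx rfl (h.pv i) hc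
      (y := α y) (by rwa [orderOf_injective α hα]), ← ht,
      ← Char.classFun_conj' (lift_classFun _ _) _ t]
    simp [α, mul_assoc]
  · refine ⟨0, ?_⟩
    rw [Nat.cast_zero, ← Char.inner_zero_left (pch M (j i))]
    refine hpv.inner_congr_left fun y hy => ?_
    rw [sec_apply, e y hy]
    refine lift_eq_zero hM.1 (x := ⟨x, self_mem_Cen x⟩) hx le_rfl (h.pv i) ?_
    obtain ⟨m, hm⟩ := hx
    obtain ⟨r, -, hr⟩ := (Nat.dvd_prime_pow hM.1).1 (hm ▸ orderOf_pow_dvd l' : orderOf (x ^ l') ∣ _)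
    rwa [pPart_mul_of_commute hM.1 ((commute_of_mem_Cen y).pow_left l') ⟨r, hr⟩
      (by rwa [Subgroup.orderOf_coe])]

theorem blockRank_le_card_fixed (hM : IsPModular p M) {B : Set (IrrCharacter G)}
    (hB : IsPBlock M B) {l l' : ℕ} (hc : l.Coprime (Nat.card G)) (hl : ∀ g : G, (g ^ l') ^ l = g)
    (hl' : ∀ g : G, ¬ p ∣ orderOf g → g ^ l' = g) :
    blockRank p B ≤ Nat.card {χ : IrrCharacter G // χ ∈ B ∧
      ∀ g, (χ : G → ℂ) (g ^ l) = (χ : G → ℂ) g} := by
  classical
  obtain ⟨X, hX, hXrep⟩ := exists_pReps p G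
  have he := nrm_eSet_le_one hM hB
  let T : G → ℂ := fun x => ∑ χ ∈ Finset.univ.filter (· ∈ B), classInner
    (lift (Cen x) ⟨x, self_mem_Cen x⟩ (pRegularPart p (sec (Cen x) x χ))) (gal hc χ : G → ℂ)
  have a1 : (Nat.card {χ : IrrCharacter G // χ ∈ B ∧
      ∀ g, (χ : G → ℂ) (g ^ l) = (χ : G → ℂ) g} : ℂ) = ∑ x ∈ X, T x := by
    rw [Finset.sum_comm, Nat.card_eq_fintype_card, Fintype.card_subtype, ← Finset.filter_filter,
      Finset.card_filter]
    push_cast
    refine Finset.sum_congr rfl fun χ _ => ?_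
    rw [← Char.inner_sum_left, sum_lift_reg_sec hM.1 X hX hXrep (Char.irr_isClassFunction χ.2),
      Char.inner_irr']
    simp only [← gal_eq_iff hc]
    simp only [eq_comm]
  have a2 : ∀ x ∈ X, ∃ n : ℕ, T x = n := fun x hx => by
    have : T x = ∑ b ∈ (finite_induced M (Cen x) B).toFinset, ∑ χ ∈ Finset.univ.filter (· ∈ B),
        classInner (regProj p b (sec (Cen x) x χ)) (sec (Cen x) x (gal hc χ : G → ℂ)) := by
      rw [Finset.sum_comm]
      refine Finset.sum_congr rfl fun χ hχ => ?_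
      rw [inner_lift_left _ _ (Char.irr_isClassFunction (gal hc χ).2), ← Char.inner_sum_left,
        ← reg_sec_eq_sum hM (hX x hx) hB (by simpa using hχ) _ (by simp)]
    rw [this]
    refine Finset.sum_induction _ (fun z : ℂ => ∃ n : ℕ, z = n) (by
      rintro _ _ ⟨m, rfl⟩ ⟨n, rfl⟩; exact ⟨m + n, by simp⟩) ⟨0, by simp⟩ fun b hb => ?_
    have hind : IsInducedBlock M (Cen x) b B := by simpa using hb
    have hb' := nrm_eSet_le_one hM hind.1
    obtain ⟨j, φ, h⟩ := exists_iBr hM hb'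
    simp only [h.bset.inner_regProj]
    rw [Finset.sum_comm]
    refine Finset.sum_induction _ (fun z : ℂ => ∃ n : ℕ, z = n) (by
      rintro _ _ ⟨m, rfl⟩ ⟨n, rfl⟩; exact ⟨m + n, by simp⟩) ⟨0, by simp⟩ fun i _ => ?_
    obtain ⟨n, hn⟩ := exists_nat_sec_pow hM (hX x hx) hb' h i hl hl'
    refine ⟨n, ?_⟩
    have hcf : IsClassFunction G fun g => lift (Cen x) ⟨x, self_mem_Cen x⟩ (φ i) (g ^ l') :=
      Char.isClassFunction_iff_isConj.2 fun a b h =>
        Char.classFun_of_isConj (lift_classFun _ _) (h.pow _)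
    rw [← hn, ← inner_lift_right (H := Cen x) ⟨x, self_mem_Cen x⟩ _ hcf, ← Char.inner_conj_symm,
      (inSpan_lift hM (x := ⟨x, self_mem_Cen x⟩) (hX x hx) rfl hind (h.bset.pv i)
        (h.bset.span i)).inner_eq_sum, map_sum]
    refine Finset.sum_congr rfl fun χ _ => ?_
    rw [map_mul, Char.inner_conj_symm, Char.inner_conj_symm,
      inner_lift_right _ _ (Char.irr_isClassFunction χ.2),
      ← inner_lift_left (H := Cen x) ⟨x, self_mem_Cen x⟩ _ (Char.irr_isClassFunction (gal hc χ).2),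
      ← inner_pow_pow hc (fun g => lift (Cen x) ⟨x, self_mem_Cen x⟩ (φ i) (g ^ l'))]
    congr 2
    ext g
    rw [← pow_mul, mul_comm, pow_mul, hl]
  obtain ⟨x, ⟨h1, h2⟩, -⟩ := hXrep 1 ⟨0, by simp⟩
  obtain rfl : x = 1 := by simpa using h2.symm
  have a3 : T 1 = blockRank p B := by
    rw [blockRank_eq_sum hM he]
    refine Finset.sum_congr rfl fun χ _ => ?_
    rw [inner_lift_left _ _ (Char.irr_isClassFunction (gal hc χ).2),
      ← inner_restrict_of_eq_top (cen_one (G := G)), ← Char.inner_conj_symm,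
      ← Char.inner_conj_symm (fun c : Cen (1 : G) => (χ : G → ℂ) c)]
    have : pRegularPart p (sec (Cen 1) 1 (χ : G → ℂ)) =
        fun c : Cen (1 : G) => pRegularPart p (χ : G → ℂ) c := by
      ext c; simp [pRegularPart, sec_apply, IsPRegular]
    rw [← this]
    congr 1
    refine (pv_reg _).inner_congr_left fun y hy => ?_
    rw [sec_apply, gal_apply]
    have := hl y
    rw [hl' y (by rwa [Subgroup.orderOf_coe])] at this
    simp [this]
  choose! n hn using a2
  rw [Finset.sum_congr rfl hn, ← Nat.cast_sum, Nat.cast_inj] at a1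
  rw [a1, show blockRank p B = n 1 by exact_mod_cast a3.symm.trans (hn 1 h1)]
  exact Finset.single_le_sum (fun _ _ => Nat.zero_le _) h1

theorem blockRank_le_card_pRational (hM : IsPModular p M) (hp : p ≠ 2) {B : Set (IrrCharacter G)}
    (hB : IsPBlock M B) : blockRank p B ≤ Nat.card {χ : IrrCharacter G // χ ∈ B ∧ ∀ k : ℕ,
      Nat.Coprime k (Nat.card G) → k ≡ 1 [MOD Nat.card G / p ^ (Nat.card G).factorization p] →
        ∀ g : G, (χ : G → ℂ) (g ^ k) = (χ : G → ℂ) g} := by
  have n0 : Nat.card G ≠ 0 := Nat.card_pos.ne'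
  set a := (Nat.card G).factorization p
  set m := Nat.card G / p ^ a
  have hn : p ^ a * m = Nat.card G := Nat.ordProj_mul_ordCompl_eq_self _ _
  have co : (p ^ a).Coprime m := (Nat.coprime_ordCompl hM.1 n0).pow_left a
  have : NeZero (p ^ a) := ⟨pow_ne_zero _ hM.1.ne_zero⟩
  obtain ⟨u, hu⟩ := (ZMod.isCyclic_units_of_prime_pow p hM.1 hp a).exists_monoid_generator
  obtain ⟨l, l1, l2⟩ := Nat.chineseRemainder co (u : ZMod (p ^ a)).val 1
  have lu : (l : ZMod (p ^ a)) = u := by
    rw [(ZMod.natCast_eq_natCast_iff _ _ _).2 l1, ZMod.natCast_zmod_val]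
  have hc : l.Coprime (Nat.card G) := by
    rw [← hn]
    refine Nat.Coprime.mul_right ((ZMod.isUnit_iff_coprime _ _).1 (lu ▸ u.isUnit)) ?_
    rw [Nat.Coprime, l2.gcd_eq]; simp
  have hp' : ∀ {s t : ℕ}, s ≡ t [MOD Nat.card G] → ∀ g : G, g ^ s = g ^ t := fun h g =>
    pow_eq_pow_iff_modEq.2 (h.of_dvd (orderOf_dvd_natCard g))
  have t0 := Nat.totient_pos.2 (Nat.card_pos (α := G))
  refine (blockRank_le_card_fixed hM hB (l' := l ^ ((Nat.card G).totient - 1)) hc (fun g => ?_)
    fun g hg => ?_).trans (le_of_eq (Nat.card_congr (Equiv.subtypeEquivRight fun χ =>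
      and_congr_right fun _ => ⟨fun h k k1 k2 g => ?_, fun h => h l hc l2⟩)))
  · rw [← pow_mul, ← pow_succ, Nat.sub_add_cancel t0, hp' (Nat.ModEq.pow_totient hc), pow_one]
  · conv_rhs => rw [← pow_one g]
    refine pow_eq_pow_iff_modEq.2 (((l2.pow _).trans (by rw [one_pow])).of_dvd ?_)
    exact ((Nat.Coprime.pow_right a ((Nat.Prime.coprime_iff_not_dvd hM.1).2 hg).symm)).dvd_of_dvd_mul_left
      (hn ▸ orderOf_dvd_natCard g)
  · obtain ⟨j, hj⟩ := hu (ZMod.unitOfCoprime k (k1.coprime_dvd_right (Dvd.intro _ hn)))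
    have e : k ≡ l ^ j [MOD Nat.card G] := by
      rw [← hn, ← Nat.modEq_and_modEq_iff_modEq_mul co]
      refine ⟨(ZMod.natCast_eq_natCast_iff _ _ _).1 ?_,
        k2.trans ((l2.pow j).trans (by rw [one_pow])).symm⟩
      have := congrArg Units.val hj
      simp only [Units.val_pow_eq_pow_val, ZMod.coe_unitOfCoprime] at this
      rw [← this, Nat.cast_pow, lu]
    rw [hp' e]
    clear e hj
    induction j with
    | zero => simp
    | succ j ih => rw [pow_succ, pow_mul, h, ih]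

end CF.BlockB
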